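import Cfsg.Agent.CosetEnum.Step
import Cfsg.Agent.CosetEnum.J2U.AP0
import Cfsg.Agent.CosetEnum.J2U.BP0
import Cfsg.Agent.CosetEnum.J2U.CP0

/-! Certificates of coset enumerations and tables (generated, owner: helper58). -/

set_option autoImplicit false
set_option maxRecDepth 1000000

namespace Cfsg.Agent.CosetEnum.J2UA

theorem st : staticOK 6 iv (RL.map expand) subs P L = true := by decide +kernel

theorem seg : Seg P L P.m 60 :=
  (Seg.nil).snoc part0

theorem cert : Cert 6 iv RL subs 60 := fun g H hl hrels hsubs =>
  upper g H 6 iv hl (RL.map expand) subs hrels hsubs P L rfl st seg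

end Cfsg.Agent.CosetEnum.J2UA
namespace Cfsg.Agent.CosetEnum.J2UB

theorem st : staticOK 12 iv (RL.map expand) subs P L = true := by decide +kernel

theorem seg : Seg P L P.m 32 :=
  (Seg.nil).snoc part0

theorem cert : Cert 12 iv RL subs 32 := fun g H hl hrels hsubs =>
  upper g H 12 iv hl (RL.map expand) subs hrels hsubs P L rfl st seg

end Cfsg.Agent.CosetEnum.J2UB
namespace Cfsg.Agent.CosetEnum.J2UC

theorem st : staticOK 14 iv (RL.map expand) subs P L = true := by decide +kernel

theorem seg : Seg P L P.m 315 :=
  (Seg.nil).snoc part0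

theorem cert : Cert 14 iv RL subs 315 := fun g H hl hrels hsubs =>
  upper g H 14 iv hl (RL.map expand) subs hrels hsubs P L rfl st seg

end Cfsg.Agent.CosetEnum.J2UC
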